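import Cfsg.Agent.ThK1.Bound
import Cfsg.Agent.ThK1.Tabs

set_option autoImplicit false
set_option Elab.async false
set_option maxRecDepth 100000
set_option linter.all false

namespace Cfsg.Agent.ThK1
open Cfsg.Agent.CGT

noncomputable def c_l0 : Level := ⟨0, [[0], [2], [4], [6], [8], [10]], [1, 0, 2, 3, 1, 2, 4, 1, 5, 3, 4, 0, 5, 3, 2, 1, 3, 4, 0, 5, 5, 2, 1], 0x7ffffffffffffffffffffffffffffffffffffffffffffffffffffffffffffffffffffffffffffffffffffffffffffffffffffffffffffffffffffffffffffffffffffffffffffffffffffffffffffffffffffffffffffffffffffffffffffffffffffffffffff, 819⟩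
noncomputable def c_l1 : Level := ⟨1, [[0], [4], [6], [8], [10]], [0, 1, 2, 1, 3, 4, 2, 3, 1, 2, 4, 3, 4, 2, 1, 3, 2, 4, 3, 1, 2, 4, 1], 0x7ffffffffffffff1fffffffff3ffffff8003fffffff807fff0003ffffffffffff0000fffffc0000003fffffffff80007f8001ffffffffffc0000003ffc0003ffffffc000e010ffffffffc0003c01ffff804001ffff00407fc0000ff801fc001fc3f80fe71dbbe, 512⟩
noncomputable def c_l2 : Level := ⟨50, [[6], [8], [10]], [0, 2, 0, 1, 2, 0, 1, 2, 0, 1, 2, 0, 1], 0x20600000000000000061d800000000003f021ffefff0000000000000000000fdfdfff80000000003ffdffbfffc0000000000000000ffffc00000000000ffffc000000000ff80000001ff000001c0000038000400004000000000000, 168⟩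
noncomputable def c_l3 : Level := ⟨3, [[7, 8]], [0, 0], 0x228, 3⟩
noncomputable def c_ls : List Level := [c_l0, c_l1, c_l2, c_l3]
theorem c_l0_ok : (ptsOK 10 [] && (wordsIn [0, 2, 4, 6, 8, 10] c_l0.S && c_l0.ok 10 m_ns m_ts [])) = true := by decide +kernel
theorem c_l1_ok : (ptsOK 10 [0] && (wordsIn [0, 2, 4, 6, 8, 10] c_l1.S && c_l1.ok 10 m_ns m_ts [0])) = true := by decide +kernel
theorem c_l2_ok : (ptsOK 10 [1, 0] && (wordsIn [0, 2, 4, 6, 8, 10] c_l2.S && c_l2.ok 10 m_ns m_ts [1, 0])) = true := by decide +kernel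
theorem c_l3_ok : (ptsOK 10 [50, 1, 0] && (wordsIn [0, 2, 4, 6, 8, 10] c_l3.S && c_l3.ok 10 m_ns m_ts [50, 1, 0])) = true := by decide +kernel
theorem c_sound {G : Type*} [Group G] {φ : G →* Equiv.Perm ℕ} {γ : ℕ → G}
    (M : Model φ γ 10 m_ns m_ts) : ChainSound φ (gp γ [0, 2, 4, 6, 8, 10]) 10 [] c_ls :=
  ⟨Level.ok_sound' M c_l0_ok,
   Level.ok_sound' M c_l1_ok,
   Level.ok_sound' M c_l2_ok,
   Level.ok_sound' M c_l3_ok, trivial⟩
/-- the group -/
abbrev K : Type := PG 6 RR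
/-- the generators -/
noncomputable abbrev γ : ℕ → K := pgγ 6 RR
theorem gen_top : gp γ [0, 2, 4, 6, 8, 10] = ⊤ := pg_gen _ (by decide +kernel)
theorem cert : ∃ φ, Cert φ γ 10 m_ns m_ts [0, 2, 4, 6, 8, 10] c_ls := by
  obtain ⟨φ, hφ⟩ := pg_perm (m := 6) (ns := m_ns) rfl m_p
  have M : Model φ γ 10 m_ns m_ts := ⟨m_v, hφ, m_ts_ok⟩
  exact ⟨φ, Cert.of_bound M gen_top (c_sound M) ((bd0 (pg_holds _ _)).top gen_top) (by decide +kernel)⟩
theorem card_eq : Nat.card K = 211341312 := by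
  obtain ⟨φ, C⟩ := cert
  exact C.card.trans (by decide +kernel)

end Cfsg.Agent.ThK1
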