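import Cfsg.Agent.Mult.Slices
import Cfsg.Agent.ThK1.Tabs

set_option autoImplicit false
set_option Elab.async false
set_option maxRecDepth 100000
set_option linter.all false

namespace Cfsg.Agent.ThK1
open Cfsg.Agent.CGT

open Cfsg.Agent.Mult

noncomputable def u3_D : PC := ⟨3, 4, 2, 19,
  [[0, 0x14, 0x50, 0x40], [0, 0x80, 0x10, 0x40], [0, 0, 0, 0x40], [0, 0, 0, 0]],
  [0xf, 0, 0, 0],
  [(4, 1, 0x92), (4, 4, 0x14), (4, 0x10, 0x20), (5, 1, 0x21), (5, 4, 0x48), (5, 0x10, 0x20), (5, 0x40, 0x80)], 11, 0x2020103000100030000⟩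
noncomputable def u3_ds : List (List ℕ) := [[11, 8, 10, 4, 6, 8, 10, 2, 0, 4, 6, 4, 8, 6, 4, 10, 8, 6, 4, 2, 0, 4], [4, 6, 8, 11, 8, 6, 4, 0, 2, 4, 6, 4, 6, 8, 11, 8, 6, 10, 4, 8, 6, 4, 11, 11, 8, 2, 0], [10, 4, 6, 8, 4, 11, 6, 8, 10, 6, 8, 4, 6, 8, 2, 4, 6, 8, 4, 2, 0, 11, 11], [0, 10, 2, 6, 11, 8, 6, 11, 4, 6, 8, 4, 6, 4, 2, 11, 8, 6, 4, 6, 11, 0, 2], [2, 4, 6, 8, 2, 4, 6, 4, 2, 6, 8, 11, 11, 4, 6, 8, 4, 6, 4, 10, 8, 10, 10, 6, 8, 0, 10], [4, 2, 6, 0, 10, 8, 6, 4, 6, 2, 4, 6, 4, 2, 8, 6, 4, 10, 0]]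
noncomputable def u3_c : Mult.Cert := ⟨37, 17, [[], [], [1], [2]],
  [],
  [[0xc60, 0, 0, 0x288], [0, 0x13f3, 0x1b, 0x3342], [0, 0, 0x51, 0x1116], [0, 0, 0, 0x5b2]]⟩
theorem u3_all : allB u3_D u3_c [.assoc 4 8 4, .assoc 0x10 8 4, .assoc 0x20 0x10 1, .assoc 8 4 1, .fus 4 [2, 2, 2] [], .fus 4 [2, 1] [1, 2], .fus 4 [0, 0, 0] [], .fus 5 [5, 3] [3, 5, 6], .fus 5 [4, 4, 4] [6, 6]] 10 m_ts u3_ds [3, 50, 1, 0] [(79, [0x10, 1]), (101, [4]), (0, [0x40])] = true := by decide +kernel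
theorem u3_pb {G : Type*} [Group G] [Finite G] {φ : G →* Equiv.Perm ℕ} {γ : ℕ → G}
    (M : Model φ γ 10 m_ns m_ts) (hB : IsBase φ ⊤ [3, 50, 1, 0]) (hN : Nat.card G = 211341312) : PBound G 3 0 :=
  pbound_all M hB hN (by decide +kernel) (by decide +kernel) u3_all

end Cfsg.Agent.ThK1
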