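import Cfsg.Agent.Mult.Slices
import Cfsg.Agent.ThK1.Tabs

set_option autoImplicit false
set_option Elab.async false
set_option maxRecDepth 100000
set_option linter.all false

namespace Cfsg.Agent.ThK1
open Cfsg.Agent.CGT

open Cfsg.Agent.Mult

noncomputable def u7_D : PC := ⟨7, 2, 3, 24,
  [[0, 8], [0, 0]],
  [0, 0],
  [(2, 1, 0x26), (2, 8, 0x31), (3, 1, 0x11)], 9, 0x1000100000001⟩
noncomputable def u7_ds : List (List ℕ) := [[8, 11, 11, 8, 11, 4, 6, 8, 4, 11, 6, 8, 4, 10, 6, 8, 10, 4, 6, 8], [11, 11, 11, 4, 6, 8, 2, 4, 6, 4, 2, 6, 8, 10, 8, 6, 4, 6, 4, 10, 8, 11, 6, 2], [11, 8, 6, 10, 0, 2, 4, 6, 8, 2, 4, 6, 4, 0, 2, 10, 8, 6, 4, 6, 8, 11, 8, 10, 2], [2, 4, 6, 4, 0, 2, 10, 4, 6, 8, 4, 6, 4, 0, 11, 8, 6, 10, 8, 11, 6, 4, 2, 4]]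
noncomputable def u7_c : Mult.Cert := ⟨44, 21, [[], []],
  [],
  [[8, 0xf5], [0, 4]]⟩
theorem u7_all : allB u7_D u7_c [.fus 2 [1, 0] [0, 1], .fus 2 [1, 1, 1, 1, 1, 1, 1] [], .fus 3 [2, 2, 2, 2, 2, 2, 2] []] 10 m_ts u7_ds [3, 50, 1, 0] [(0, [8]), (1, [1])] = true := by decide +kernel
theorem u7_pb {G : Type*} [Group G] [Finite G] {φ : G →* Equiv.Perm ℕ} {γ : ℕ → G}
    (M : Model φ γ 10 m_ns m_ts) (hB : IsBase φ ⊤ [3, 50, 1, 0]) (hN : Nat.card G = 211341312) : PBound G 7 0 :=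
  pbound_all M hB hN (by decide +kernel) (by decide +kernel) u7_all

end Cfsg.Agent.ThK1
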