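import Cfsg.Agent.CGT.DceMul

set_option autoImplicit false
set_option Elab.async false
set_option maxRecDepth 100000
set_option linter.all false

namespace Cfsg.Agent.ThK1
open Cfsg.Agent.CGT

noncomputable def RR : List (List ℕ) := [[0, 0], [2, 2], [4, 4], [6, 6], [8, 8], [0, 2, 0, 2, 0, 2], [0, 8, 0, 8], [2, 4, 2, 4, 2, 4], [2, 6, 2, 6], [2, 8, 2, 8], [0, 7, 5, 7, 5, 7, 5, 7, 5], [4, 8, 4, 8], [6, 8, 6, 8, 6, 8], [2, 4, 6, 8, 2, 4, 6, 8, 2, 4, 6, 8, 2, 4, 6, 8, 2, 4, 6, 8, 2, 4, 6, 8, 2, 4, 6, 8, 2, 4, 6, 8], [10, 10, 10, 10, 10, 10, 10], [11, 1, 10, 0], [11, 3, 10, 2], [11, 5, 10, 4], [10, 6, 10, 6], [9, 11, 8, 11, 11, 9, 10, 10, 10]]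

end Cfsg.Agent.ThK1
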